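import Mathlib
import Cfsg.Agent.CHAR.Scalar

/-!
# Berger's theorem: quasi-primitive characters of solvable groups are primitive
-/

set_option autoImplicit false
open Cfsg Module
open scoped commutatorElement ComplexConjugate

namespace CL.Char

universe u

section Config

variable {G : Type*} [Group G]

/-- The group-theoretic configuration attached to a non-normal maximal subgroup `H` with core `L`
of a group with `G / L` solvable. -/
structure BergerCfg (H L K M : Subgroup G) : Prop where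
  nL : L.Normal
  nK : K.Normal
  nM : M.Normal
  hLK : L ≤ K
  hKM : K ≤ M
  sup : H ⊔ K = ⊤
  inf : K ⊓ H = L
  cop : Nat.Coprime (L.relIndex K) (K.relIndex M)
  ne : ¬ ⁅M ⊓ H, K⁆ ≤ L
  solv : ∃ n, derivedSeries G n ≤ L

theorem BergerCfg.hLH {H L K M : Subgroup G} (c : BergerCfg H L K M) : L ≤ H :=
  c.inf ▸ inf_le_right

theorem BergerCfg.ne_top {H L K M : Subgroup G} (c : BergerCfg H L K M) : H ≠ ⊤ := by
  rintro rfl
  have h := c.inf
  rw [inf_top_eq] at h
  have := c.nK
  exact c.ne ((Subgroup.commutator_le_right _ _).trans h.le)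

theorem BergerCfg.relIndex_eq {H L K M : Subgroup G} (c : BergerCfg H L K M) :
    L.relIndex H = K.index := by
  have := c.nK
  rw [← c.inf, Subgroup.inf_relIndex_right, ← Subgroup.relIndex_sup_right, c.sup,
    Subgroup.relIndex_top_right]

theorem BergerCfg.index_eq [Finite G] {H L K M : Subgroup G} (c : BergerCfg H L K M) :
    H.index = L.relIndex K := by
  have h1 := Subgroup.relIndex_mul_index c.hLH
  rw [← Subgroup.relIndex_mul_index c.hLK, c.relIndex_eq, mul_comm] at h1
  exact Nat.eq_of_mul_eq_mul_right (Nat.pos_of_ne_zero Subgroup.index_ne_zero_of_finite) h1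

theorem BergerCfg.comap {Γ : Type*} [Group Γ] (π : Γ →* G) (hπ : Function.Surjective π)
    {H L K M : Subgroup G} (c : BergerCfg H L K M) :
    BergerCfg (H.comap π) (L.comap π) (K.comap π) (M.comap π) where
  nL := c.nL.comap π
  nK := c.nK.comap π
  nM := c.nM.comap π
  hLK := Subgroup.comap_mono c.hLK
  hKM := Subgroup.comap_mono c.hKM
  sup := by rw [Subgroup.comap_sup_eq π H K hπ, c.sup, Subgroup.comap_top]
  inf := by rw [← Subgroup.comap_inf, c.inf]
  cop := by
    rw [Subgroup.relIndex_comap, Subgroup.relIndex_comap,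
      Subgroup.map_comap_eq_self_of_surjective hπ, Subgroup.map_comap_eq_self_of_surjective hπ]
    exact c.cop
  ne := by
    intro h
    apply c.ne
    rw [← Subgroup.map_le_iff_le_comap, Subgroup.map_commutator, ← Subgroup.comap_inf,
      Subgroup.map_comap_eq_self_of_surjective hπ,
      Subgroup.map_comap_eq_self_of_surjective hπ] at h
    exact h
  solv := by
    obtain ⟨n, hn⟩ := c.solv
    exact ⟨n, Subgroup.map_le_iff_le_comap.mp
      ((map_derivedSeries_le_derivedSeries π n).trans hn)⟩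

theorem inf_normal_of_commutator_le {H L K M : Subgroup G} [M.Normal] [K.Normal]
    (hL : L ≤ M ⊓ H) (hs : H ⊔ K = ⊤) (h : ⁅M ⊓ H, K⁆ ≤ L) : (M ⊓ H).Normal := by
  rw [← Subgroup.normalizer_eq_top_iff, eq_top_iff, ← hs]
  refine sup_le (CL.le_normalizer_inf Subgroup.le_normalizer_of_normal Subgroup.le_normalizer) ?_
  have key : ∀ k ∈ K, ∀ x ∈ M ⊓ H, k * x * k⁻¹ ∈ M ⊓ H := by
    intro k hk x hx
    have h1 : k * x * k⁻¹ = ⁅x, k⁆⁻¹ * x := by rw [commutatorElement_def]; group
    rw [h1]
    exact mul_mem (inv_mem (hL (h (Subgroup.commutator_mem_commutator hx hk)))) hx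
  intro k hk
  rw [Subgroup.mem_normalizer_iff]
  refine fun x => ⟨key k hk x, fun hx => ?_⟩
  have := key k⁻¹ (inv_mem hk) _ hx
  simpa [mul_assoc] using this

theorem exists_bergerCfg [Finite G] {H L : Subgroup G} [L.Normal] (hmax : IsCoatom H)
    (hn : ¬ H.Normal) (hLH : L ≤ H) (hcore : ∀ M : Subgroup G, M.Normal → M ≤ H → M ≤ L)
    (hs : Group.IsSolvable (G ⧸ L)) : ∃ K M : Subgroup G, BergerCfg H L K M := by
  obtain ⟨K, hK, hLK, -, hc⟩ := CL.exists_chief_above (hLH.trans_lt hmax.lt_top)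
  have hsup : H ⊔ K = ⊤ :=
    hmax.2 _ (left_lt_sup.mpr fun h => hLK.not_ge (hcore K hK h))
  have hinf : K ⊓ H = L := by
    refine le_antisymm (hcore _ (inf_normal_of_commutator_le (le_inf hLK.le hLH) hsup ?_)
      inf_le_right) (le_inf hLK.le hLH)
    exact (Subgroup.commutator_mono inf_le_left le_rfl).trans (commutator_le_of_chief hLK hc hs)
  have hKtop : K < ⊤ := by
    rw [lt_top_iff_ne_top]
    rintro rfl
    rw [top_inf_eq] at hinf
    exact hn (hinf ▸ inferInstance)
  obtain ⟨M, hM, hKM, -, hc'⟩ := CL.exists_chief_above hKtop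
  have hne : ¬ ⁅M ⊓ H, K⁆ ≤ L := by
    intro h
    have h1 := hcore _ (inf_normal_of_commutator_le (le_inf (hLK.le.trans hKM.le) hLH) hsup h)
      inf_le_right
    have h2 := CL.sup_inf_assoc_of_le_of_le_normalizer (H := K) (K := H) hKM.le
      (Or.inr Subgroup.le_normalizer_of_normal)
    rw [sup_comm K H, hsup, top_inf_eq, inf_comm] at h2
    exact hKM.not_ge (h2.le.trans (sup_le le_rfl (h1.trans hLK.le)))
  refine ⟨K, M, inferInstance, hK, hM, hLK.le, hKM.le, hsup, hinf, ?_, hne,
    (isSolvable_quot_iff L).mp hs⟩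
  obtain ⟨p, a, hp, ha⟩ := exists_relIndex_eq_pow_of_chief hLK hc hs
  obtain ⟨q, b, hq, hb⟩ := exists_relIndex_eq_pow_of_chief hKM hc'
    (isSolvable_quot_of_le hLK.le hs)
  rw [ha, hb]
  refine Nat.Coprime.pow _ _ ((Nat.coprime_primes hp hq).mpr ?_)
  rintro rfl
  apply hne
  have := Fact.mk hp
  have h1 : IsPGroup p (M.map (QuotientGroup.mk' L)) := by
    refine IsPGroup.of_card (n := a + b) ?_
    rw [CL.card_map_mk'_eq_relIndex, ← Subgroup.relIndex_mul_relIndex L K M hLK.le hKM.le, ha, hb,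
      pow_add]
  have : (M.map (QuotientGroup.mk' L)).Normal := hM.map _ (QuotientGroup.mk'_surjective L)
  have h2 := (CL.isMinNormal_map_mk'_of_chief hLK hc).le_centralizer_of_isNilpotent h1.isNilpotent
  refine (Subgroup.commutator_mono inf_le_left le_rfl).trans ?_
  rwa [← CL.map_mk'_eq_bot_iff, Subgroup.map_commutator,
    Subgroup.commutator_eq_bot_iff_le_centralizer]

end Config

/-- Characters that are homogeneous on all normal subgroups above `N` are not induced from proper
subgroups above `N`. -/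
def RelPrim (G : Type*) [Group G] [Fintype G] (N : Subgroup G) : Prop :=
  ∀ χ : G → ℂ, IsIrrCharacter G χ → (∀ M : Subgroup G, M.Normal → N ≤ M → IsHomog M χ) →
    ∀ (H : Subgroup G) (θ : H → ℂ), N ≤ H → IsCharacter H θ → indFun H θ = χ → H = ⊤

section Steps

variable {G : Type*} [Group G]

theorem IsHomog.res_of_sup {H K : Subgroup G} [Finite G] [K.Normal] {β : G → ℂ} (h1 : β 1 ≠ 0)
    (hK : K ≤ charCenter β) {V : Subgroup H} (h : IsHomog (V.map H.subtype ⊔ K) β) :
    IsHomog V (fun x : H => β x) := by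
  obtain ⟨η, e, he, hη, hres⟩ := h.exists_pos h1
  let f : V →* (V.map H.subtype ⊔ K : Subgroup G) :=
    { toFun := fun x => ⟨((x : H) : G), Subgroup.mem_sup_left ⟨x, x.2, rfl⟩⟩
      map_one' := rfl
      map_mul' := fun _ _ => rfl }
  refine ⟨_, e, hη.comp_of_range_sup_charCenter f ?_, funext fun x => congrFun hres (f x)⟩
  have h2 := subgroupOf_le_charCenter_res (V.map H.subtype ⊔ K) hK
  rw [hres, charCenter_smul (Nat.cast_ne_zero.mpr he.ne')] at h2
  rw [eq_top_iff]
  rintro ⟨x, hx⟩ -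
  obtain ⟨_, ⟨v, hv, rfl⟩, k, hk, rfl⟩ := Subgroup.mem_sup_of_normal_right.mp hx
  exact Subgroup.mul_mem_sup (x := f ⟨v, hv⟩) (y := ⟨k, Subgroup.mem_sup_right hk⟩) ⟨_, rfl⟩
    (h2 hk)

theorem normal_map_subtype_sup {H K : Subgroup G} [K.Normal] (hs : H ⊔ K = ⊤) (V : Subgroup H)
    [V.Normal] : (V.map H.subtype ⊔ K).Normal := by
  rw [← Subgroup.normalizer_eq_top_iff, eq_top_iff, ← hs]
  exact sup_le (CL.le_normalizer_sup (CL.le_normalizer_map_subtype H V)
    Subgroup.le_normalizer_of_normal) (le_sup_right.trans Subgroup.le_normalizer)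

theorem berger_step3 [Fintype G] {H L K M : Subgroup G} [Fintype H] (c : BergerCfg H L K M)
    (IH : RelPrim H (L.subgroupOf H)) {θ : H → ℂ} (hθ : IsCharacter H θ) {ψ β : G → ℂ}
    (hψ : IsCharacter G ψ) (hψK : IsIrrCharacter K (fun x : K => ψ x)) (hβ : IsIrrCharacter G β)
    (hK : K ≤ charCenter β) (hind : indFun H θ = β * ψ) (hL : L ≤ charCenter (β * ψ))
    (hq : ∀ W : Subgroup G, W.Normal → K ≤ W → IsHomog W (β * ψ)) : False := by
  classical
  have := c.nL
  have := c.nK
  have := c.nM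
  have hχ := mul_ext_irr hψ hψK hβ hK
  have hθ' := hθ.irr_of_ind (hind ▸ hχ)
  have hβK : ∀ k ∈ K, ‖β k‖ = ‖β 1‖ := fun k hk => norm_apply_of_mem_charCenter (hK hk)
  have hβ1 : ‖β 1‖ ≠ 0 := norm_ne_zero_iff.mpr hβ.one_ne_zero
  -- `ψ` is scalar on `L` and vanishes on `K \ L`
  have hLψ : L ≤ charCenter ψ := by
    intro l hl
    have h1 := norm_apply_of_mem_charCenter (hL hl)
    rw [Pi.mul_apply, Pi.mul_apply, norm_mul, norm_mul, hβK l (c.hLK hl)] at h1
    exact hψ.mem_charCenter'.mpr (mul_left_cancel₀ hβ1 h1)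
  have hψ0 : ∀ k ∈ K, k ∉ L → ψ k = 0 := by
    intro k hk hkL
    have h1 : (β * ψ) k = 0 := by
      rw [← hind]
      refine indFun_eq_zero_of_not_conj H θ k fun x hx => hkL ?_
      have h2 : x⁻¹ * k * x ∈ L := by
        rw [← c.inf]
        exact ⟨Subgroup.Normal.conj_mem' inferInstance k hk x, hx⟩
      have := Subgroup.Normal.conj_mem inferInstance _ h2 x
      simpa [mul_assoc] using this
    rcases mul_eq_zero.mp h1 with h | h
    · exact absurd ((hβK k hk).symm.trans (norm_eq_zero.mpr h)) hβ1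
    · exact h
  obtain ⟨f, hf0, hf⟩ := hψK.exists_pos_degree
  have hf1 : ψ 1 = f := hf
  have hf2 : f ^ 2 = L.relIndex K := by
    have h1 := (inner_res_self_eq_index_iff (L.subgroupOf K) hψK.inner_self).mpr
      (fun g hg => hψ0 g g.2 hg)
    rw [classInner_self_eq] at h1
    have h2 : ∀ x : L.subgroupOf K, ‖ψ ((x : K) : G)‖ = f := fun x => by
      rw [norm_apply_of_mem_charCenter (g := ((x : K) : G)) (hLψ x.2), hf1, Complex.norm_natCast]
    simp only [h2, Finset.sum_const, Finset.card_univ, nsmul_eq_mul,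
      ← Nat.card_eq_fintype_card] at h1
    rw [inv_mul_cancel_left₀ (Nat.cast_ne_zero.mpr Nat.card_pos.ne')] at h1
    exact_mod_cast h1
  have hβθ : β 1 = f * θ 1 := by
    have h1 := congrFun hind 1
    rw [indFun_one, Pi.mul_apply, hf1, c.index_eq, ← hf2] at h1
    refine mul_right_cancel₀ (Nat.cast_ne_zero.mpr hf0.ne' : (f : ℂ) ≠ 0) ?_
    rw [← h1]; push_cast; ring
  -- the restriction of `β` to `H`
  have hγ : IsIrrCharacter H (fun x : H => β x) := by
    refine hβ.comp_of_range_sup_charCenter H.subtype ?_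
    rw [Subgroup.range_subtype, eq_top_iff, ← c.sup]
    exact sup_le_sup_left hK _
  have hγq : ∀ V : Subgroup H, V.Normal → L.subgroupOf H ≤ V → IsHomog V (fun x : H => β x) :=
    fun V _ _ => IsHomog.res_of_sup hβ.one_ne_zero hK (IsHomog.of_mul_ext le_sup_right hψ hψK
      hβ.isCharacter hK (hq _ (normal_map_subtype_sup c.sup V) le_sup_right))
  have hΨ := hψ.res H
  have hγeq : (fun x : H => conj (ψ x) * θ x) = fun x : H => β x := by
    refine (hΨ.conj.mul hθ).eq_of_inner_ne_zero_of_degree hγ ?_ ?_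
    · have h1 := inner_ind_eq_inner_res hθ hχ.isCharacter
      rw [hind, hχ.inner_self] at h1
      have h2 := classInner_mul_left (fun x : H => β x) (fun x : H => ψ x) θ
      rw [classInner_eq_zero_comm.ne]
      exact fun h0 => one_ne_zero (h1.trans (h2.trans h0))
    · simp [hβθ, hf1]
  have hΨ' : IsIrrCharacter H (fun x : H => ψ x) := by
    have h1 := (hΨ.conj.irr_of_mul hθ (by
      have : ((fun x : H => conj (ψ x)) * θ) = fun x : H => β x := hγeq
      rw [this]; exact hγ)).conj
    simpa using h1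
  rcases homogeneous_or_induced (M.subgroupOf H) hΨ' with ⟨ξ, e, hξ, he⟩ | ⟨T, ξ, hMT, hT, hξ, h1⟩
  · -- the homogeneous case
    obtain ⟨d, hd0, hd⟩ := hξ.exists_pos_degree
    have h1 : f = e * d := by
      have := congrFun he 1
      simp only [OneMemClass.coe_one, hf1, Pi.smul_apply, hd, smul_eq_mul] at this
      exact_mod_cast this
    have he0 : (e : ℂ) ≠ 0 := by
      rw [Nat.cast_ne_zero]
      rintro rfl
      omega
    let j : M.subgroupOf H →* M :=
      { toFun := fun x => ⟨((x : H) : G), x.2⟩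
        map_one' := rfl
        map_mul' := fun _ _ => rfl }
    have h2 : (K.subgroupOf M).comap j ≤ charCenter ξ := by
      rw [← charCenter_smul he0, ← he]
      intro x hx
      refine comap_charCenter_le (H.subtype.comp (M.subgroupOf H).subtype) ψ (hLψ ?_)
      rw [← c.inf]
      exact ⟨hx, (x : H).2⟩
    have h3 := hξ.charDegree_dvd_index_of_le h2
    rw [charDegree_eq_of_apply_one hd, Subgroup.index_comap] at h3
    have h4 : d ∣ K.relIndex M := h3.trans (Subgroup.relIndex_dvd_index_of_normal _ _)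
    have h5 : d ∣ L.relIndex K := by
      rw [← hf2, h1]
      exact Dvd.dvd.mul_right (Dvd.intro_left e rfl) _ |>.trans (by rw [sq])
    obtain rfl : d = 1 := Nat.eq_one_of_dvd_coprimes c.cop h5 h4
    have h6 : M ⊓ H ≤ charCenter ψ := by
      intro x hx
      have h7 := congrFun he ⟨⟨x, hx.2⟩, hx.1⟩
      simp only [Pi.smul_apply, smul_eq_mul] at h7
      rw [hψ.mem_charCenter', h7, norm_mul,
        hξ.isCharacter.norm_eq_one_of_apply_one (by simpa using hd), hf1, h1]
      simp
    apply c.ne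
    rw [Subgroup.commutator_le]
    intro x hx k hk
    by_contra hn
    have h7 := apply_eq_of_mem_charKer (hψ.isClassFunction.commutator_mem_charKer (h6 hx) k)
    rw [hψ0 _ (Subgroup.commutator_le_right _ _ (Subgroup.commutator_mem_commutator hx hk)) hn,
      hf1] at h7
    exact hf0.ne (by exact_mod_cast h7)
  · refine hT (IH _ hγ hγq T (fun t => conj (ξ t) * θ t)
      ((Subgroup.comap_mono (c.hLK.trans c.hKM)).trans hMT)
      (hξ.isCharacter.conj.mul (hθ.res T)) ?_)
    rw [indFun_mul_res T _ hθ.isClassFunction, ← hγeq]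
    ext x
    rw [Pi.mul_apply, indFun_conj, h1]

end Steps

theorem BergerCfg.relIndex_lt {G : Type*} [Group G] [Finite G] {H L K M : Subgroup G}
    (c : BergerCfg H L K M) : L.relIndex H < L.index := by
  rw [← Subgroup.relIndex_mul_index c.hLH]
  exact lt_mul_of_one_lt_right (Nat.pos_of_ne_zero Subgroup.index_ne_zero_of_finite)
    (Subgroup.one_lt_index_of_ne_top c.ne_top)

theorem isHomog_of_comap_le {G Γ : Type*} [Group G] [Group Γ] (π : Γ →* G)
    (hπ : Function.Surjective π) {N : Subgroup G} {χ : G → ℂ}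
    (hq : ∀ W : Subgroup G, W.Normal → N ≤ W → IsHomog W χ) (W : Subgroup Γ) (hW : W.Normal)
    (h : N.comap π ≤ W) : IsHomog W (fun x => χ (π x)) := by
  have h1 : (W.map π).comap π = W :=
    Subgroup.comap_map_eq_self ((Subgroup.ker_le_comap π N).trans h)
  rw [← h1]
  refine IsHomog.comap π hπ (hq _ (hW.map π hπ) ?_)
  rw [← Subgroup.map_comap_eq_self_of_surjective hπ N]
  exact Subgroup.map_mono h

theorem berger_step2 {G : Type u} [Group G] [Fintype G] {H L K M : Subgroup G}
    (c : BergerCfg H L K M)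
    (IH : ∀ (G' : Type u) [Group G'] [Fintype G'] (N : Subgroup G') [N.Normal],
      N.index < L.index → Group.IsSolvable (G' ⧸ N) → RelPrim G' N)
    {θ : H → ℂ} (hθ : IsCharacter H θ) (hχ : IsIrrCharacter G (indFun H θ))
    (hL : L ≤ charCenter (indFun H θ))
    (hq : ∀ W : Subgroup G, W.Normal → L ≤ W → IsHomog W (indFun H θ)) : False := by
  classical
  have := c.nK
  have := c.nL
  obtain ⟨Γ, _, _, π, ψ, β, hπ, -, hψ, hψK, hβ, hK, h⟩ :=
    exists_scalar_cover hχ (hq K c.nK c.hLK)
  have := Fintype.ofFinite Γ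
  have c' := c.comap π hπ
  refine berger_step3 c' (IH _ _ ?_ ?_) (θ := fun x : H.comap π => θ ⟨π x, x.2⟩)
    (hθ.comp (π.subgroupComap H)) hψ hψK hβ hK ?_ ?_ ?_
  · rw [← L.index_comap_of_surjective hπ]
    exact c'.relIndex_lt
  · exact isSolvable_quot_of_comap_le (H.comap π).subtype le_rfl
      ((isSolvable_quot_iff _).mpr c'.solv)
  · rw [← h]
    exact funext (indFun_comap π hπ H θ)
  · rw [← h]
    exact (Subgroup.comap_mono hL).trans (comap_charCenter_le π _)
  · rw [← h]
    exact fun W hW hKW => isHomog_of_comap_le π hπ hq W hW (c'.hLK.trans hKW)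

theorem berger_step1 {G : Type u} [Group G] [Fintype G] {H L K M : Subgroup G}
    (c : BergerCfg H L K M)
    (IH : ∀ (G' : Type u) [Group G'] [Fintype G'] (N : Subgroup G') [N.Normal],
      N.index < L.index → Group.IsSolvable (G' ⧸ N) → RelPrim G' N)
    {θ : H → ℂ} (hθ : IsCharacter H θ) (hχ : IsIrrCharacter G (indFun H θ))
    (hq : ∀ W : Subgroup G, W.Normal → L ≤ W → IsHomog W (indFun H θ)) : False := by
  classical
  have := c.nL
  obtain ⟨Γ, _, _, π, ψ, β, hπ, -, hψ, hψL, hβ, hL, h⟩ :=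
    exists_scalar_cover hχ (hq L c.nL le_rfl)
  have := Fintype.ofFinite Γ
  have c' := c.comap π hπ
  obtain ⟨ξ, hξ, hind⟩ := exists_ind_of_mul_ext c'.hLH hψ hψL hβ hL
    (δ := fun x : H.comap π => θ ⟨π x, x.2⟩) (hθ.comp (π.subgroupComap H))
    (by rw [← h]; exact funext (indFun_comap π hπ H θ))
  refine berger_step2 c' (by rw [L.index_comap_of_surjective hπ]; exact IH) hξ.isCharacter
    (hind ▸ hβ) (hind ▸ hL) fun W hW hLW => ?_
  rw [hind]
  exact IsHomog.of_mul_ext hLW hψ hψL hβ.isCharacter hL (h ▸ isHomog_of_comap_le π hπ hq W hW hLW)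

theorem eq_top_of_ind_normal_of_homog {G : Type*} [Group G] [Fintype G] {H : Subgroup G}
    [H.Normal] {θ : H → ℂ} (hθ : IsCharacter H θ) (hχ : IsIrrCharacter G (indFun H θ))
    (h : IsHomog H (indFun H θ)) : H = ⊤ := by
  classical
  have hθ' := hθ.irr_of_ind hχ
  obtain ⟨φ, e, he, hφ, hres⟩ := h.exists_pos hχ.one_ne_zero
  have h1 := inner_ind_eq_inner_res hθ hχ.isCharacter
  rw [hχ.inner_self, hres] at h1
  obtain rfl : φ = θ := eq_of_inner_smul_ne_zero hφ hθ' (h1 ▸ one_ne_zero)
  rw [← (ind_irr_iff_inertia_eq hφ).mp hχ]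
  exact inertia_eq_top_of_res_eq_smul hχ.isClassFunction (Nat.cast_ne_zero.mpr he.ne') hres

theorem relPrim_aux (n : ℕ) : ∀ (G : Type u) [Group G] [Fintype G] (N : Subgroup G) [N.Normal],
    N.index < n → Group.IsSolvable (G ⧸ N) → RelPrim G N := by
  induction n with
  | zero => intro G _ _ N _ h; omega
  | succ n ih =>
    intro G _ _ N _ hn hs χ hχ hq T φ hNT hφ hind
    classical
    by_contra hT
    obtain ⟨H, hmax, hTH⟩ := (eq_top_or_exists_le_coatom T).resolve_left hT
    have h1 := indFun_indFun_subOf hTH φ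
    have hθ := (hφ.subOf hTH).ind
    rw [hind] at h1
    subst h1
    have hNL : N ≤ H.normalCore := Subgroup.normal_le_normalCore.mpr (hNT.trans hTH)
    by_cases hH : H.Normal
    · exact hmax.1 (eq_top_of_ind_normal_of_homog hθ hχ (hq H hH (hNT.trans hTH)))
    obtain ⟨K, M, c⟩ := exists_bergerCfg hmax hH H.normalCore_le
      (fun M _ h => Subgroup.normal_le_normalCore.mpr h) (isSolvable_quot_of_le hNL hs)
    refine berger_step1 c (fun G' _ _ N' _ h => ih G' N' ?_) hθ hχ
      fun W hW hLW => hq W hW (hNL.trans hLW)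
    have := Nat.le_of_dvd (Nat.pos_of_ne_zero Subgroup.index_ne_zero_of_finite)
      (Subgroup.index_dvd_of_le hNL)
    omega

/-- **Berger's theorem**, relative form. -/
theorem eq_top_of_homog_of_ind {G : Type*} [Group G] [Fintype G] {N : Subgroup G} [N.Normal]
    (hs : Group.IsSolvable (G ⧸ N)) {χ : G → ℂ} (hχ : IsIrrCharacter G χ)
    (hq : ∀ M : Subgroup G, M.Normal → N ≤ M → IsHomog M χ) {H : Subgroup G} {θ : H → ℂ}
    (hNH : N ≤ H) (hθ : IsCharacter H θ) (h : indFun H θ = χ) : H = ⊤ :=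
  relPrim_aux (N.index + 1) G N (Nat.lt_succ_self _) hs χ hχ hq H θ hNH hθ h

end CL.Char
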